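/-
helper51 for helper85's farm (S5165): piece P4a, with the common lemmas for P4a, P4b, P4c.
-/
import Cfsg.Agent.Lib.Helper85.AltModel

set_option autoImplicit false
set_option linter.unusedSectionVars false

namespace Cfsg.Agent.Lib.Helper51.AltP4a

open Equiv Equiv.Perm Cfsg.Agent.Lib.Helper85.AltM

variable {p : ℕ} [Fact p.Prime] {κ ε : Type} [Fintype κ] [DecidableEq κ] [Fintype ε] [DecidableEq ε]

theorem mem_normalizer_of_conj {G : Type*} [Group G] (H : Subgroup G) (g : G)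
    (h1 : ∀ x ∈ H, g * x * g⁻¹ ∈ H) (h2 : ∀ x ∈ H, g⁻¹ * x * g ∈ H) :
    g ∈ Subgroup.normalizer (H : Set G) := by
  rw [Subgroup.mem_normalizer_iff]
  intro x
  refine ⟨h1 x, fun hx => ?_⟩
  have := h2 _ hx
  simpa [mul_assoc] using this

theorem J_bl_mem_normalizer (ρ : Perm (Idx p κ)) :
    J ε (bl ρ) ∈ Subgroup.normalizer (Ahat p κ ε : Set (Perm (M p κ ε))) := by
  apply mem_normalizer_of_conj
  · rintro _ ⟨f, rfl⟩
    exact ⟨_, by rw [← map_inv, ← map_mul, ← map_mul, bl_conj_tr]⟩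
  · rintro _ ⟨f, rfl⟩
    refine ⟨fun i => f (ρ i), ?_⟩
    have h := bl_conj_tr ρ⁻¹ f
    rw [bl_inv, inv_inv, inv_inv] at h
    rw [← map_inv, ← map_mul, ← map_mul, h]

theorem J_ml_mem_normalizer (l : Idx p κ → (ZMod p)ˣ) :
    J ε (ml l) ∈ Subgroup.normalizer (Ahat p κ ε : Set (Perm (M p κ ε))) := by
  apply mem_normalizer_of_conj
  · rintro _ ⟨f, rfl⟩
    exact ⟨_, by rw [← map_inv, ← map_mul, ← map_mul, ml_conj_tr]⟩
  · rintro _ ⟨f, rfl⟩
    have h := ml_conj_tr l⁻¹ f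
    rw [ml_inv, inv_inv] at h
    exact ⟨_, by rw [← map_inv, ← map_mul, ← map_mul, h]⟩

/-- a closure of a set stable under conjugation by `w` is stable under conjugation by `w` -/
theorem conj_mem_closure {G : Type*} [Group G] {S : Set G} {w : G}
    (hS : ∀ y ∈ S, w * y * w⁻¹ ∈ S) {x : G} (hx : x ∈ Subgroup.closure S) :
    w * x * w⁻¹ ∈ Subgroup.closure S := by
  induction hx using Subgroup.closure_induction with
  | mem y hy => exact Subgroup.subset_closure (hS y hy)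
  | one => simp
  | mul a b _ _ ha hb =>
    have : w * (a * b) * w⁻¹ = (w * a * w⁻¹) * (w * b * w⁻¹) := by group
    rw [this]; exact mul_mem ha hb
  | inv a _ ha =>
    have : w * a⁻¹ * w⁻¹ = (w * a * w⁻¹)⁻¹ := by group
    rw [this]; exact inv_mem ha

/-- the generating set: `p`-elements of the normalizer of a subgroup -/
theorem conj_mem_gen {G : Type*} [Group G] (H : Subgroup G) {w : G}
    (hw : w ∈ Subgroup.normalizer (H : Set G)) {x : G}
    (hx : x ∈ Subgroup.closure {y : G | y ∈ Subgroup.normalizer (H : Set G) ∧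
      ∃ k : ℕ, y ^ p ^ k = 1}) :
    w * x * w⁻¹ ∈ Subgroup.closure {y : G | y ∈ Subgroup.normalizer (H : Set G) ∧
      ∃ k : ℕ, y ^ p ^ k = 1} := by
  apply conj_mem_closure _ hx
  rintro y ⟨hy, k, hk⟩
  refine ⟨mul_mem (mul_mem hw hy) (inv_mem hw), k, ?_⟩
  rw [conj_pow, hk]; simp

theorem T_nsmul (s : ZMod p) (k : ℕ) : T (κ := κ) (k • s) = T s ^ k := by
  induction k with
  | zero => simp [T_zero]
  | succ k ih => rw [succ_nsmul, T_add, ih, pow_succ]

theorem T_pow_p (s : ZMod p) : T (κ := κ) s ^ p = 1 := by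
  rw [← T_nsmul]
  have : p • s = 0 := by simp
  rw [this, T_zero]

/-- block permutations as a homomorphism -/
def blH (p : ℕ) [Fact p.Prime] (κ ε : Type) [Fintype κ] [DecidableEq κ] [Fintype ε]
    [DecidableEq ε] : Perm (Idx p κ) →* Perm (M p κ ε) :=
  (J ε).comp (MonoidHom.mk' bl bl_mul)

theorem blH_apply (σ : Perm (Idx p κ)) : blH p κ ε σ = J ε (bl σ) := rfl

theorem two_ne_zero_of_ne (hp : p ≠ 2) : (1 + 1 : ZMod p) ≠ 0 := by
  intro h
  have h2 : ((2 : ℕ) : ZMod p) = 0 := by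
    rw [← h]; norm_num
  rw [ZMod.natCast_eq_zero_iff] at h2
  exact hp ((Nat.prime_dvd_prime_iff_eq Fact.out Nat.prime_two).1 h2)

/-- [P4a] -/
theorem gen_odd_bl (hp : p ≠ 2) (σ : Perm (Idx p κ)) (hσ : sign σ = 1) :
    J ε (bl σ) ∈ Subgroup.closure {y : Perm (M p κ ε) |
      y ∈ Subgroup.normalizer (Ahat p κ ε : Set (Perm (M p κ ε))) ∧ ∃ k : ℕ, y ^ p ^ k = 1} := by
  set C := Subgroup.closure {y : Perm (M p κ ε) |
      y ∈ Subgroup.normalizer (Ahat p κ ε : Set (Perm (M p κ ε))) ∧ ∃ k : ℕ, y ^ p ^ k = 1} with hC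
  set H : Subgroup (Perm (Idx p κ)) := C.comap (blH p κ ε) with hH
  have hnorm : ∀ ρ τ : Perm (Idx p κ), τ ∈ H → ρ * τ * ρ⁻¹ ∈ H := by
    intro ρ τ hτ
    show blH p κ ε (ρ * τ * ρ⁻¹) ∈ C
    rw [map_mul, map_mul, map_inv]
    exact conj_mem_gen _ (J_bl_mem_normalizer ρ) hτ
  have hT : T (κ := κ) (1 : ZMod p) ∈ H := by
    show J ε (bl (T 1)) ∈ C
    apply Subgroup.subset_closure
    refine ⟨J_bl_mem_normalizer _, 1, ?_⟩
    have h1 : blH p κ ε (T 1) ^ p ^ 1 = 1 := by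
      rw [pow_one, ← map_pow, T_pow_p, map_one]
    exact h1
  set ρ : Perm (Idx p κ) := swap (Sum.inl 0) (Sum.inl 1) with hρ
  have h3 : T (κ := κ) (1 : ZMod p) * (ρ * (T 1)⁻¹ * ρ⁻¹) ∈ H :=
    mul_mem hT (hnorm ρ _ (inv_mem hT))
  have h3eq : T (κ := κ) (1 : ZMod p) * (ρ * (T 1)⁻¹ * ρ⁻¹)
      = swap (Sum.inl 1) (Sum.inl (1 + 1)) * swap (Sum.inl 1) (Sum.inl 0) := by
    have h4 : T (κ := κ) (1 : ZMod p) * ρ * (T 1)⁻¹
        = swap (Sum.inl 1) (Sum.inl (1 + 1)) := by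
      rw [hρ, ← swap_apply_apply]
      simp
    have h5 : ρ⁻¹ = swap (Sum.inl 1) (Sum.inl 0) := by
      rw [hρ, swap_inv, swap_comm]
    rw [← h4, ← h5]; group
  have hcyc : (T (κ := κ) (1 : ZMod p) * (ρ * (T 1)⁻¹ * ρ⁻¹)).IsThreeCycle := by
    rw [h3eq]
    apply isThreeCycle_swap_mul_swap_same
    · intro h
      have := Sum.inl_injective h
      simp at this
    · intro h
      have := Sum.inl_injective h
      simp at this
    · intro h
      exact two_ne_zero_of_ne hp (Sum.inl_injective h)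
  have hall : alternatingGroup (Idx p κ) ≤ H := by
    rw [← closure_three_cycles_eq_alternating, Subgroup.closure_le]
    intro τ hτ
    have hconj : IsConj (T (κ := κ) (1 : ZMod p) * (ρ * (T 1)⁻¹ * ρ⁻¹)) τ := by
      rw [isConj_iff_cycleType_eq, hcyc.cycleType, IsThreeCycle.cycleType hτ]
    obtain ⟨g, hg⟩ := isConj_iff.1 hconj
    rw [← hg]
    exact hnorm g _ h3
  exact hall (mem_alternatingGroup.2 hσ)

end Cfsg.Agent.Lib.Helper51.AltP4a
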