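/-
helper51 for helper85's farm (S5165): piece P4c.
-/
import Cfsg.Agent.Lib.Helper51.AltP4a

set_option autoImplicit false
set_option linter.unusedSectionVars false

namespace Cfsg.Agent.Lib.Helper51.AltP4c

open Equiv Equiv.Perm Cfsg.Agent.Lib.Helper85.AltM Cfsg.Agent.Lib.Helper51.AltP4a

variable {p : ℕ} [Fact p.Prime] {κ ε : Type} [Fintype κ] [DecidableEq κ] [Fintype ε] [DecidableEq ε]

theorem sign_addRight_sum {ι : Type*} (s : Finset ι) (f : ι → ZMod p) :
    sign (Equiv.addRight (∑ i ∈ s, f i) : Perm (ZMod p))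
      = ∏ i ∈ s, sign (Equiv.addRight (f i) : Perm (ZMod p)) := by
  classical
  induction s using Finset.induction_on with
  | empty =>
    have : (Equiv.addRight (0 : ZMod p) : Perm (ZMod p)) = 1 := by ext x; simp
    simp [this]
  | insert a s ha ih =>
    rw [Finset.sum_insert ha, Finset.prod_insert ha, ← ih, ← Perm.sign_mul]
    congr 1
    ext x
    simp [add_comm, add_left_comm]

theorem sign_tr_eq' (f : Idx p κ → ZMod p) :
    sign (tr f) = sign (Equiv.addRight (∑ i, f i) : Perm (ZMod p)) := by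
  rw [sign_tr, sign_addRight_sum]

theorem sign_conj' {α : Type*} [Fintype α] [DecidableEq α] (g x : Perm α) :
    sign (g * x * g⁻¹) = sign x := by
  rw [Perm.sign_mul, Perm.sign_mul, sign_inv, mul_comm, ← mul_assoc, Int.units_mul_self, one_mul]

theorem normalizer_Ahat_le :
    Subgroup.normalizer (Ahat p κ ε : Set (Perm (M p κ ε))) ≤
      Subgroup.normalizer (AA p κ ε : Set (Perm (M p κ ε))) := by
  intro g hg
  rw [Subgroup.mem_normalizer_iff] at hg ⊢
  intro x
  constructor
  · intro h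
    obtain ⟨h1, h2⟩ := mem_AA.1 h
    exact mem_AA.2 ⟨(hg x).1 h1, by rw [sign_conj']; exact h2⟩
  · intro h
    obtain ⟨h1, h2⟩ := mem_AA.1 h
    rw [sign_conj'] at h2
    exact mem_AA.2 ⟨(hg x).2 h1, h2⟩

/-- [P4c] -/
theorem gen_two (hp : p = 2) (d : Idx p κ → ZMod p) (σ : Perm (Idx p κ)) (hd : ∑ i, d i = 0) :
    J ε (tr d * bl σ) ∈ Subgroup.closure {y : Perm (M p κ ε) | y ∈ alternatingGroup (M p κ ε) ∧
      y ∈ Subgroup.normalizer (AA p κ ε : Set (Perm (M p κ ε))) ∧ ∃ k : ℕ, y ^ p ^ k = 1} := by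
  rw [map_mul]
  apply mul_mem
  · apply Subgroup.subset_closure
    have hs : sign (J ε (tr d)) = 1 := by
      rw [sign_J, sign_tr_eq', hd]
      have : (Equiv.addRight (0 : ZMod p) : Perm (ZMod p)) = 1 := by ext x; simp
      rw [this, Perm.sign_one]
    refine ⟨mem_alternatingGroup.2 hs, ?_, 1, ?_⟩
    · exact Subgroup.le_normalizer ⟨⟨d, rfl⟩, mem_alternatingGroup.2 hs⟩
    · rw [pow_one, ← map_pow, tr_pow_p, map_one]
  · induction σ using Equiv.Perm.swap_induction_on with
    | one => rw [bl_one, map_one]; exact one_mem _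
    | swap_mul f x y hxy ih =>
      rw [bl_mul, map_mul]
      refine mul_mem (Subgroup.subset_closure ?_) ih
      refine ⟨?_, normalizer_Ahat_le (J_bl_mem_normalizer _), 1, ?_⟩
      · rw [mem_alternatingGroup, sign_J, sign_bl, sign_swap hxy, hp]; rfl
      · rw [pow_one]
        refine (congrArg (fun n : ℕ => (J ε (bl (swap x y))) ^ n) hp).trans ?_
        show (J ε (bl (swap x y))) ^ 2 = 1
        rw [← map_pow, pow_two, ← bl_mul, swap_mul_self, bl_one, map_one]

end Cfsg.Agent.Lib.Helper51.AltP4c
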