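/-
helper51 for helper85's farm (S5165): piece P8a.
-/
import Cfsg.Agent.Lib.Helper51.AltP4a

set_option autoImplicit false
set_option linter.unusedSectionVars false
set_option linter.unusedVariables false

namespace Cfsg.Agent.Lib.Helper51.AltP8a

open Equiv Equiv.Perm Cfsg.Agent.Lib.Helper85.AltM Cfsg.Agent.Lib.Helper51.AltP4a

variable {p : ℕ} [Fact p.Prime] {κ ε : Type} [Fintype κ] [DecidableEq κ] [Fintype ε] [DecidableEq ε]

theorem J_tr_pow_p (f : Idx p κ → ZMod p) : (J ε (tr f)) ^ p = 1 := by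
  rw [← map_pow, tr_pow_p, map_one]

theorem isPGroup_Ahat' : IsPGroup p (Ahat p κ ε) := by
  rintro ⟨_, f, rfl⟩
  refine ⟨1, ?_⟩
  apply Subtype.ext
  simp [J_tr_pow_p]

theorem J_tr_mem (f : Idx p κ → ZMod p) : J ε (tr f) ∈ Ahat p κ ε := ⟨f, rfl⟩

theorem filter_single_card (j : Idx p κ) {c : ZMod p} (hc : c ≠ 0) :
    (Finset.univ.filter (fun k => (Pi.single j c : Idx p κ → ZMod p) k ≠ 0)).card = 1 := by
  have : Finset.univ.filter (fun k => (Pi.single j c : Idx p κ → ZMod p) k ≠ 0) = {j} := by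
    ext k
    by_cases hk : k = j
    · subst hk; simp [hc]
    · simp [hk]
  rw [this, Finset.card_singleton]

/-- the common part of P8a and P8b: passing between elements of order `p` with supports of the
same size -/
theorem star
    (hconjalt : ∀ z z' : Perm (M p κ ε), z ^ p = 1 → z' ^ p = 1 → z.support.card = z'.support.card →
      ∃ h : Perm (M p κ ε), sign h = 1 ∧ h * z * h⁻¹ = z')
    (𝒳 : Set (Perm (M p κ ε)))
    (hconj : ∀ x ∈ 𝒳, ∀ g : Perm (M p κ ε), sign g = 1 → g * x * g⁻¹ ∈ 𝒳)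
    {u u' : Perm (M p κ ε)} (hu : u ∈ 𝒳) (hup : u ^ p = 1) (hup' : u' ^ p = 1)
    (hc : u.support.card = u'.support.card) : u' ∈ 𝒳 := by
  obtain ⟨h, hs, rfl⟩ := hconjalt u u' hup hup' hc
  exact hconj u hu h hs

/-- [P8a] -/
theorem order_p_subset_odd (hp : p ≠ 2) (h3 : 3 ≤ Fintype.card (Idx p κ)) [Subsingleton ε]
    (hconjalt : ∀ z z' : Perm (M p κ ε), z ^ p = 1 → z' ^ p = 1 → z.support.card = z'.support.card →
      ∃ h : Perm (M p κ ε), sign h = 1 ∧ h * z * h⁻¹ = z')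
    (hex : ∀ z : Perm (M p κ ε), z ^ p = 1 →
      ∃ f : Idx p κ → ZMod p, (∀ i, f i = 0 ∨ f i = 1) ∧ (J ε (tr f)).support.card = z.support.card)
    (hcard : ∀ f : Idx p κ → ZMod p,
      (J ε (tr f)).support.card = p * (Finset.univ.filter (fun i => f i ≠ 0)).card)
    (𝒳 : Set (Perm (M p κ ε)))
    (hconj : ∀ x ∈ 𝒳, ∀ g : Perm (M p κ ε), sign g = 1 → g * x * g⁻¹ ∈ 𝒳)
    (hmul : ∀ x ∈ 𝒳, ∀ y ∈ 𝒳, ∀ P : Subgroup (Perm (M p κ ε)), IsPGroup p P → x ∈ P → y ∈ P → x * y ∈ 𝒳)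
    (z : Perm (M p κ ε)) (hz : z ∈ 𝒳) (hz1 : z ≠ 1) (hzp : z ^ p = 1) :
    ∀ x : Perm (M p κ ε), x ^ p = 1 → x ∈ 𝒳 := by
  have hstar := @star p _ κ ε _ _ _ _ hconjalt 𝒳 hconj
  have hmulA : ∀ f g : Idx p κ → ZMod p, J ε (tr f) ∈ 𝒳 → J ε (tr g) ∈ 𝒳 →
      J ε (tr (f + g)) ∈ 𝒳 := by
    intro f g hf hg
    rw [tr_add, map_mul]
    exact hmul _ hf _ hg _ isPGroup_Ahat' (J_tr_mem f) (J_tr_mem g)
  obtain ⟨f, hf01, hfc⟩ := hex z hzp
  have hfX : J ε (tr f) ∈ 𝒳 := hstar hz hzp (J_tr_pow_p f) hfc.symm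
  have hf0 : ∃ i, f i ≠ 0 := by
    by_contra h
    push Not at h
    have : f = 0 := funext h
    rw [this, tr_zero, map_one, support_one, Finset.card_empty] at hfc
    exact hz1 (card_support_eq_zero.1 hfc.symm)
  obtain ⟨i, hi⟩ := hf0
  have hi1 : f i = 1 := (hf01 i).resolve_left hi
  set g : Idx p κ → ZMod p := Function.update (-f) i 1 with hg
  have hgX : J ε (tr g) ∈ 𝒳 := by
    apply hstar hfX (J_tr_pow_p f) (J_tr_pow_p g)
    rw [hcard, hcard]
    congr 2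
    ext k
    by_cases hk : k = i
    · subst hk; simp [hg, hi]
    · simp [hg, hk]
  have hsum : f + g = Pi.single i (1 + 1) := by
    funext k
    by_cases hk : k = i
    · subst hk; simp [hg, hi1]
    · simp [hg, hk]
  have h2X : J ε (tr (Pi.single i (1 + 1) : Idx p κ → ZMod p)) ∈ 𝒳 := by
    rw [← hsum]; exact hmulA f g hfX hgX
  have hsingle : ∀ (j : Idx p κ) (c : ZMod p), c ≠ 0 →
      J ε (tr (Pi.single j c : Idx p κ → ZMod p)) ∈ 𝒳 := by
    intro j c hc
    apply hstar h2X (J_tr_pow_p _) (J_tr_pow_p _)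
    rw [hcard, hcard, filter_single_card i (two_ne_zero_of_ne hp), filter_single_card j hc]
  have hzero : J ε (tr (0 : Idx p κ → ZMod p)) ∈ 𝒳 := by
    have h1 := hmulA _ _ (hsingle i 1 one_ne_zero) (hsingle i (-1) (neg_ne_zero.2 one_ne_zero))
    rwa [← Pi.single_add, add_neg_cancel, Pi.single_zero] at h1
  have hsingle' : ∀ (j : Idx p κ) (c : ZMod p),
      J ε (tr (Pi.single j c : Idx p κ → ZMod p)) ∈ 𝒳 := by
    intro j c
    by_cases hc : c = 0
    · rw [hc, Pi.single_zero]; exact hzero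
    · exact hsingle j c hc
  have hall : ∀ f : Idx p κ → ZMod p, J ε (tr f) ∈ 𝒳 := by
    intro f
    have key : ∀ s : Finset (Idx p κ),
        J ε (tr (∑ j ∈ s, (Pi.single j (f j) : Idx p κ → ZMod p))) ∈ 𝒳 := by
      intro s
      induction s using Finset.induction_on with
      | empty => rw [Finset.sum_empty]; exact hzero
      | insert a s ha ih =>
        rw [Finset.sum_insert ha]
        exact hmulA _ _ (hsingle' a _) ih
    have := key Finset.univ
    rwa [Finset.univ_sum_single] at this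
  intro x hx
  obtain ⟨f', -, hfc'⟩ := hex x hx
  exact hstar (hall f') (J_tr_pow_p f') hx hfc'

end Cfsg.Agent.Lib.Helper51.AltP8a
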