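/-
helper51 for helper85's farm (S5165): piece P8b.
-/
import Cfsg.Agent.Lib.Helper51.AltP8a
import Cfsg.Agent.Lib.Helper51.AltP4c

set_option autoImplicit false
set_option linter.unusedSectionVars false
set_option linter.unusedVariables false

namespace Cfsg.Agent.Lib.Helper51.AltP8b

open Equiv Equiv.Perm Cfsg.Agent.Lib.Helper85.AltM Cfsg.Agent.Lib.Helper51.AltP4a
  Cfsg.Agent.Lib.Helper51.AltP8a Cfsg.Agent.Lib.Helper51.AltP4c

variable {p : ℕ} [Fact p.Prime] {κ ε : Type} [Fintype κ] [DecidableEq κ] [Fintype ε] [DecidableEq ε]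

theorem card_support_J (π : Perm (X p κ)) : (J ε π).support.card = π.support.card := by
  have : (J ε π).support = π.support.map ⟨Sum.inl, Sum.inl_injective⟩ := by
    ext y
    rcases y with y | e
    · simp [mem_support]
    · simp [mem_support]
  rw [this, Finset.card_map]

theorem support_bl_tr (σ : Perm (Idx p κ)) (g : Idx p κ → ZMod p) :
    (bl σ * tr g).support = (Finset.univ.filter (fun k => σ k ≠ k ∨ g k ≠ 0)) ×ˢ Finset.univ := by
  ext ⟨k, x⟩
  simp only [mem_support, Perm.mul_apply, tr_apply, bl_apply, ne_eq, Prod.mk.injEq, add_eq_left,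
    Finset.mem_product, Finset.mem_filter, Finset.mem_univ, true_and, and_true]
  tauto

theorem card_support_J_bl_tr (σ : Perm (Idx p κ)) (g : Idx p κ → ZMod p) :
    (J ε (bl σ * tr g)).support.card
      = p * (Finset.univ.filter (fun k => σ k ≠ k ∨ g k ≠ 0)).card := by
  rw [card_support_J, support_bl_tr, Finset.card_product, Finset.card_univ, ZMod.card, mul_comm]

/-- the indicator function of a pair -/
def pr (i j : Idx p κ) : Idx p κ → ZMod p := Pi.single i 1 + Pi.single j 1

theorem pr_ne_zero_iff {i j : Idx p κ} (hij : i ≠ j) (k : Idx p κ) :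
    pr i j k ≠ 0 ↔ k = i ∨ k = j := by
  unfold pr
  by_cases hi : k = i
  · subst hi; simp [hij]
  · by_cases hj : k = j
    · subst hj; simp [hi]
    · simp [hi, hj]

theorem filter_pr_card {i j : Idx p κ} (hij : i ≠ j) :
    (Finset.univ.filter (fun k => pr i j k ≠ 0)).card = 2 := by
  have : Finset.univ.filter (fun k => pr i j k ≠ 0) = {i, j} := by
    ext k
    simp [pr_ne_zero_iff hij]
  rw [this, Finset.card_pair hij]

theorem isPGroup_zpowers {G : Type*} [Group G] {g : G} (hg : g ^ p = 1) :
    IsPGroup p (Subgroup.zpowers g) := by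
  rintro ⟨_, n, rfl⟩
  refine ⟨1, ?_⟩
  apply Subtype.ext
  show (g ^ n) ^ p ^ 1 = 1
  rw [pow_one, ← zpow_natCast, ← zpow_mul, mul_comm, zpow_mul, zpow_natCast, hg, one_zpow]

theorem zmod_two_cases (c : ZMod 2) : c = 0 ∨ c = 1 := by
  revert c; decide

theorem sign_addRight_one : sign (Equiv.addRight (1 : ZMod 2) : Perm (ZMod 2)) = -1 := by
  decide

/-- [P8b] -/
theorem order_p_subset_two (hp : p = 2) (h3 : 3 ≤ Fintype.card (Idx p κ)) [Subsingleton ε]
    (hconjalt : ∀ z z' : Perm (M p κ ε), z ^ p = 1 → z' ^ p = 1 → z.support.card = z'.support.card →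
      ∃ h : Perm (M p κ ε), sign h = 1 ∧ h * z * h⁻¹ = z')
    (hex : ∀ z : Perm (M p κ ε), z ^ p = 1 →
      ∃ f : Idx p κ → ZMod p, (∀ i, f i = 0 ∨ f i = 1) ∧ (J ε (tr f)).support.card = z.support.card)
    (hcard : ∀ f : Idx p κ → ZMod p,
      (J ε (tr f)).support.card = p * (Finset.univ.filter (fun i => f i ≠ 0)).card)
    (𝒳 : Set (Perm (M p κ ε)))
    (hconj : ∀ x ∈ 𝒳, ∀ g : Perm (M p κ ε), sign g = 1 → g * x * g⁻¹ ∈ 𝒳)
    (hmul : ∀ x ∈ 𝒳, ∀ y ∈ 𝒳, ∀ P : Subgroup (Perm (M p κ ε)), IsPGroup p P → x ∈ P → y ∈ P → x * y ∈ 𝒳)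
    (z : Perm (M p κ ε)) (hz : z ∈ 𝒳) (hz1 : z ≠ 1) (hzp : z ^ p = 1) (hzs : sign z = 1) :
    ∀ x : Perm (M p κ ε), x ^ p = 1 → sign x = 1 → x ∈ 𝒳 := by
  subst hp
  have hstar := @star 2 _ κ ε _ _ _ _ hconjalt 𝒳 hconj
  have hmulA : ∀ f g : Idx 2 κ → ZMod 2, J ε (tr f) ∈ 𝒳 → J ε (tr g) ∈ 𝒳 →
      J ε (tr (f + g)) ∈ 𝒳 := by
    intro f g hf hg
    rw [tr_add, map_mul]
    exact hmul _ hf _ hg _ isPGroup_Ahat' (J_tr_mem f) (J_tr_mem g)
  have hself : ∀ c : ZMod 2, c + c = 0 := fun c => CharTwo.add_self_eq_zero c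
  obtain ⟨f, hf01, hfc⟩ := hex z hzp
  have hfX : J ε (tr f) ∈ 𝒳 := hstar hz hzp (J_tr_pow_p f) hfc.symm
  have hf0 : ∃ i, f i ≠ 0 := by
    by_contra h
    push Not at h
    have : f = 0 := funext h
    rw [this, tr_zero, map_one, support_one, Finset.card_empty] at hfc
    exact hz1 (card_support_eq_zero.1 hfc.symm)
  obtain ⟨i, hi⟩ := hf0
  have hi1 : f i = 1 := (hf01 i).resolve_left hi
  -- Goal 1
  have goal1 : ∃ i j : Idx 2 κ, i ≠ j ∧ J ε (tr (pr i j)) ∈ 𝒳 := by
    by_cases hall : ∃ j, f j = 0
    · obtain ⟨j, hj⟩ := hall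
      have hij : i ≠ j := by
        rintro rfl
        exact hi hj
      refine ⟨i, j, hij, ?_⟩
      have h1 : J ε (tr (fun k => f ((swap i j)⁻¹ k))) ∈ 𝒳 := by
        rw [← bl_conj_tr, map_mul, map_mul, map_inv]
        apply hconj _ hfX
        rw [sign_J, sign_bl, sign_swap hij]; rfl
      have h2 := hmulA _ _ hfX h1
      have h3' : f + (fun k => f ((swap i j)⁻¹ k)) = pr i j := by
        funext k
        rw [swap_inv]
        unfold pr
        by_cases hki : k = i
        · subst hki; simp [hi1, hj, hij]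
        · by_cases hkj : k = j
          · subst hkj; simp [hi1, hj, hki]
          · simp [hki, hkj, swap_apply_of_ne_of_ne hki hkj, hself]
      rwa [h3'] at h2
    · push Not at hall
      have hf1 : ∀ k, f k = 1 := fun k => (hf01 k).resolve_left (hall k)
      set a : Idx 2 κ := Sum.inl 0 with ha
      set b : Idx 2 κ := Sum.inl 1 with hb
      have hab : a ≠ b := by
        intro h
        have := Sum.inl_injective h
        exact zero_ne_one this
      refine ⟨a, b, hab, ?_⟩
      set σ : Perm (Idx 2 κ) := swap a b with hσ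
      set g : Idx 2 κ → ZMod 2 := fun k => if k = a ∨ k = b then 0 else 1 with hg
      have hσσ : ∀ k, σ (σ k) = k := fun k => swap_apply_self a b k
      have hmove : ∀ k, σ k ≠ k ↔ k = a ∨ k = b := by
        intro k
        rw [hσ, swap_apply_ne_self_iff]
        exact ⟨fun h => h.2, fun h => ⟨hab, h⟩⟩
      have hinv : ∀ k, (σ k = a ∨ σ k = b) ↔ (k = a ∨ k = b) := by
        intro k
        constructor
        · intro h
          by_contra hk
          push Not at hk
          rw [hσ, swap_apply_of_ne_of_ne hk.1 hk.2] at h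
          exact h.elim hk.1 hk.2
        · rintro (rfl | rfl)
          · right; rw [hσ, swap_apply_left]
          · left; rw [hσ, swap_apply_right]
      have hsq : ∀ g' : Idx 2 κ → ZMod 2, (∀ k, g' (σ k) = g' k) →
          (J ε (bl σ * tr g')) ^ 2 = 1 := by
        intro g' hg'
        rw [← map_pow]
        have : (bl σ * tr g') ^ 2 = 1 := by
          rw [pow_two]
          ext ⟨k, x⟩
          · simp [hσσ]
          · simp [hg', add_assoc, hself]
        rw [this, map_one]
      have hgσ : ∀ k, g (σ k) = g k := by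
        intro k
        simp only [hg, hinv]
      -- the first new involution
      have hz'X : J ε (bl σ * tr g) ∈ 𝒳 := by
        apply hstar hfX (J_tr_pow_p f) (hsq g hgσ)
        rw [hcard, card_support_J_bl_tr]
        congr 2
        ext k
        simp only [Finset.mem_filter, Finset.mem_univ, true_and, hmove, hg]
        constructor
        · intro _
          by_cases hk : k = a ∨ k = b
          · exact Or.inl hk
          · right; simp [hk]
        · intro _
          rw [hf1]; exact one_ne_zero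
      -- a 2-group containing both
      have hP : IsPGroup 2 (Subgroup.zpowers (J ε (bl σ)) ⊔ Ahat 2 κ ε :
          Subgroup (Perm (M 2 κ ε))) := by
        apply IsPGroup.to_sup_of_normal_right' _ isPGroup_Ahat'
        · rw [Subgroup.zpowers_le]
          exact J_bl_mem_normalizer σ
        · apply isPGroup_zpowers
          rw [← map_pow, pow_two, ← bl_mul, hσ, swap_mul_self, bl_one, map_one]
      have hu : J ε (tr f) * J ε (bl σ * tr g) ∈ 𝒳 := by
        apply hmul _ hfX _ hz'X _ hP
        · exact Subgroup.mem_sup_right (J_tr_mem f)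
        · rw [map_mul]
          exact mul_mem (Subgroup.mem_sup_left (Subgroup.mem_zpowers _))
            (Subgroup.mem_sup_right (J_tr_mem g))
      have hueq : J ε (tr f) * J ε (bl σ * tr g) = J ε (bl σ * tr (pr a b)) := by
        rw [← map_mul]
        congr 1
        ext ⟨k, x⟩
        · simp
        · simp only [Perm.mul_apply, tr_apply, bl_apply, hf1, hg]
          unfold pr
          by_cases hka : k = a
          · subst hka; simp [hab]
          · by_cases hkb : k = b
            · subst hkb; simp [hka]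
            · simp [hka, hkb, add_assoc, hself]
      rw [hueq] at hu
      have hprσ : ∀ k, pr a b (σ k) = pr a b k := by
        intro k
        by_cases hk : k = a ∨ k = b
        · have h1 := (pr_ne_zero_iff hab k).2 hk
          have h2 := (pr_ne_zero_iff hab (σ k)).2 ((hinv k).2 hk)
          rw [(zmod_two_cases _).resolve_left h1, (zmod_two_cases _).resolve_left h2]
        · have h1 : pr a b k = 0 := by
            by_contra h; exact hk ((pr_ne_zero_iff hab k).1 h)
          have h2 : pr a b (σ k) = 0 := by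
            by_contra h; exact hk ((hinv k).1 ((pr_ne_zero_iff hab (σ k)).1 h))
          rw [h1, h2]
      apply hstar hu (hsq _ hprσ) (J_tr_pow_p _)
      rw [hcard, card_support_J_bl_tr]
      congr 2
      ext k
      simp only [Finset.mem_filter, Finset.mem_univ, true_and, hmove, pr_ne_zero_iff hab, or_self]
  obtain ⟨i₀, j₀, hij₀, hpr₀⟩ := goal1
  -- Goal 2
  have hpair : ∀ k l : Idx 2 κ, k ≠ l → J ε (tr (pr k l)) ∈ 𝒳 := by
    intro k l hkl
    apply hstar hpr₀ (J_tr_pow_p _) (J_tr_pow_p _)
    rw [hcard, hcard, filter_pr_card hij₀, filter_pr_card hkl]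
  have hzero : J ε (tr (0 : Idx 2 κ → ZMod 2)) ∈ 𝒳 := by
    have h1 := hmulA _ _ hpr₀ hpr₀
    have h2 : pr i₀ j₀ + pr i₀ j₀ = 0 := by
      funext k; exact hself _
    rwa [h2] at h1
  have hterm : ∀ (k : Idx 2 κ) (c : ZMod 2),
      J ε (tr (Pi.single k c + Pi.single (Sum.inl 0) c : Idx 2 κ → ZMod 2)) ∈ 𝒳 := by
    intro k c
    rcases zmod_two_cases c with rfl | rfl
    · simpa using hzero
    · by_cases hk : k = Sum.inl 0
      · rw [hk]
        have : (Pi.single (Sum.inl 0) 1 + Pi.single (Sum.inl 0) 1 : Idx 2 κ → ZMod 2) = 0 := by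
          funext k; exact hself _
        rw [this]; exact hzero
      · exact hpair k _ hk
  have hall : ∀ f : Idx 2 κ → ZMod 2, ∑ k, f k = 0 → J ε (tr f) ∈ 𝒳 := by
    intro f hf
    have key : ∀ s : Finset (Idx 2 κ),
        J ε (tr (∑ k ∈ s, (Pi.single k (f k) + Pi.single (Sum.inl 0) (f k) :
          Idx 2 κ → ZMod 2))) ∈ 𝒳 := by
      intro s
      induction s using Finset.induction_on with
      | empty => rw [Finset.sum_empty]; exact hzero
      | insert a s ha ih =>
        rw [Finset.sum_insert ha]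
        exact hmulA _ _ (hterm a _) ih
    have h1 := key Finset.univ
    rw [Finset.sum_add_distrib, Finset.univ_sum_single] at h1
    have h2 : ∑ k, (Pi.single (Sum.inl 0) (f k) : Idx 2 κ → ZMod 2)
        = Pi.single (Sum.inl 0) (∑ k, f k) :=
      (map_sum (AddMonoidHom.single (fun _ : Idx 2 κ => ZMod 2) (Sum.inl 0)) f
        Finset.univ).symm
    rwa [h2, hf, Pi.single_zero, add_zero] at h1
  -- Goal 3
  intro x hx hxs
  obtain ⟨f', -, hfc'⟩ := hex x hx
  obtain ⟨h, hs, hh⟩ := hconjalt _ x (J_tr_pow_p f') hx hfc'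
  have hsf : sign (J ε (tr f')) = 1 := by
    rw [← hh, sign_conj'] at hxs
    exact hxs
  have hsum : ∑ k, f' k = 0 := by
    rw [sign_J, sign_tr_eq'] at hsf
    rcases zmod_two_cases (∑ k, f' k) with h0 | h1
    · exact h0
    · rw [h1, sign_addRight_one] at hsf
      exact absurd hsf (by decide)
  rw [← hh]
  exact hconj _ (hall f' hsum) h hs

end Cfsg.Agent.Lib.Helper51.AltP8b
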