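import Mathlib
import Cfsg.Prelude.Def_KGroupFacts

/-!
Non-splitting of `Aut(Q)` over `Inn(Q)` for a `2`-group `Q` of extraspecial type containing three pairwise commuting
elements of order four which are independent modulo the centre.

The proof is elementary.  For `a` with `a * a = z` the map `x ↦ x` (if `x` commutes with `a`), `x ↦ x * a` (otherwise) is an
automorphism `tv a` whose square is conjugation by `a`.  With `a₄ = a₁ a₂ a₃` the automorphisms `α = tv a₁ tv a₂ tv a₃` and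
`β = tv a₁ tv a₂ tv a₄` commute and have inner squares, but no elements `λ ∈ Inn α`, `μ ∈ Inn β` are commuting involutions.
-/

set_option autoImplicit false

namespace Cfsg.Agent.Lib.Helper51

variable {Q : Type*} [Group Q] {z : Q}

/-- elementwise description of a `2`-group of extraspecial type with centre `{1, z}`. -/
structure E2 (z : Q) : Prop where
  z_ne : z ≠ 1
  z_sq : z * z = 1
  z_comm : ∀ q, q * z = z * q
  center : ∀ y, (∀ q, q * y = y * q) → y = 1 ∨ y = z
  comm : ∀ x y, x * y = y * x ∨ x * y = z * (y * x)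
  sq : ∀ x, x * x = 1 ∨ x * x = z

namespace E2

theorem z_left (h : E2 z) (q r : Q) : q * (z * r) = z * (q * r) := by
  rw [← mul_assoc, h.z_comm, mul_assoc]

theorem z_z (h : E2 z) (r : Q) : z * (z * r) = r := by
  rw [← mul_assoc, h.z_sq, one_mul]

theorem anti_ne (h : E2 z) {x a : Q} (hx : x * a = z * (a * x)) : x * a ≠ a * x := by
  intro h1
  rw [h1] at hx
  exact h.z_ne (mul_eq_right.1 hx.symm)

theorem anti_of_ne (h : E2 z) {x a : Q} (hx : x * a ≠ a * x) : x * a = z * (a * x) :=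
  (h.comm x a).resolve_left hx

end E2

theorem assoc_rule {x a w : Q} (h : x * a = w) (r : Q) : x * (a * r) = w * r := by
  rw [← mul_assoc, h]

open Classical in
/-- the "translation part" of the transvection attached to `a`. -/
noncomputable def tvm (a x : Q) : Q := if x * a = a * x then 1 else a

theorem tvm_of_comm {a x : Q} (h : x * a = a * x) : tvm a x = 1 := if_pos h

theorem tvm_of_ne {a x : Q} (h : x * a ≠ a * x) : tvm a x = a := if_neg h

/-- the transvection attached to `a`, as an endomorphism. -/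
noncomputable def tvHom (h : E2 z) (a : Q) (ha : a * a = z) : Q →* Q where
  toFun x := x * tvm a x
  map_one' := by rw [tvm_of_comm (by simp), mul_one]
  map_mul' x y := by
    have haa := assoc_rule ha
    rcases h.comm x a with hx | hx <;> rcases h.comm y a with hy | hy
    · have hxy : x * y * a = a * (x * y) := by
        simp only [mul_assoc, hy, assoc_rule hx]
      rw [tvm_of_comm hx, tvm_of_comm hy, tvm_of_comm hxy]
      simp
    · have hxy : x * y * a = z * (a * (x * y)) := by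
        simp only [mul_assoc, hy, assoc_rule hx, h.z_left]
      rw [tvm_of_comm hx, tvm_of_ne (h.anti_ne hy), tvm_of_ne (h.anti_ne hxy)]
      simp [mul_assoc]
    · have hxy : x * y * a = z * (a * (x * y)) := by
        simp only [mul_assoc, hy, assoc_rule hx, h.z_left]
      rw [tvm_of_ne (h.anti_ne hx), tvm_of_comm hy, tvm_of_ne (h.anti_ne hxy)]
      simp only [mul_assoc, hy, mul_one]
    · have hxy : x * y * a = a * (x * y) := by
        simp only [mul_assoc, hy, assoc_rule hx, h.z_left, h.z_z]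
      rw [tvm_of_ne (h.anti_ne hx), tvm_of_ne (h.anti_ne hy), tvm_of_comm hxy]
      simp only [mul_assoc, hy, assoc_rule hx, h.z_left, h.z_z, haa, mul_one]

theorem tvHom_apply (h : E2 z) (a : Q) (ha : a * a = z) (x : Q) : tvHom h a ha x = x * tvm a x := rfl

theorem tvHom_of_comm (h : E2 z) {a : Q} (ha : a * a = z) {x : Q} (hx : x * a = a * x) :
    tvHom h a ha x = x := by
  rw [tvHom_apply, tvm_of_comm hx, mul_one]

theorem tvHom_of_anti (h : E2 z) {a : Q} (ha : a * a = z) {x : Q} (hx : x * a = z * (a * x)) :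
    tvHom h a ha x = x * a := by
  rw [tvHom_apply, tvm_of_ne (h.anti_ne hx)]

theorem tvHom_tvHom (h : E2 z) (a : Q) (ha : a * a = z) (x : Q) :
    tvHom h a ha (tvHom h a ha x) = a * x * a⁻¹ := by
  rcases h.comm x a with hx | hx
  · rw [tvHom_of_comm h ha hx, tvHom_of_comm h ha hx, ← hx, mul_inv_cancel_right]
  · rw [tvHom_of_anti h ha hx, map_mul, tvHom_of_anti h ha hx, tvHom_of_comm h ha rfl, mul_assoc, ha]
    have h1 : a * x = z * (x * a) := by rw [hx, h.z_z]
    rw [h1, mul_assoc, mul_inv_cancel_right, h.z_comm]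

theorem tvHom_bijective (h : E2 z) (a : Q) (ha : a * a = z) : Function.Bijective (tvHom h a ha) := by
  constructor
  · intro x y hxy
    have h1 := congrArg (tvHom h a ha) hxy
    rw [tvHom_tvHom, tvHom_tvHom] at h1
    exact mul_left_cancel (mul_right_cancel h1)
  · intro y
    refine ⟨tvHom h a ha (a⁻¹ * y * a), ?_⟩
    rw [tvHom_tvHom]
    group

/-- the transvection attached to `a`, as an automorphism. -/
noncomputable def tv (h : E2 z) (a : Q) (ha : a * a = z) : MulAut Q :=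
  MulEquiv.ofBijective (tvHom h a ha) (tvHom_bijective h a ha)

theorem tv_apply (h : E2 z) (a : Q) (ha : a * a = z) (x : Q) : tv h a ha x = x * tvm a x := rfl

theorem tv_of_comm (h : E2 z) {a : Q} (ha : a * a = z) {x : Q} (hx : x * a = a * x) :
    tv h a ha x = x := tvHom_of_comm h ha hx

theorem tv_of_anti (h : E2 z) {a : Q} (ha : a * a = z) {x : Q} (hx : x * a = z * (a * x)) :
    tv h a ha x = x * a := tvHom_of_anti h ha hx

theorem tv_mul_self (h : E2 z) (a : Q) (ha : a * a = z) : tv h a ha * tv h a ha = MulAut.conj a := by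
  ext x
  exact tvHom_tvHom h a ha x

theorem tvm_comm {a b : Q} (hab : a * b = b * a) (x : Q) : tvm a x * b = b * tvm a x := by
  unfold tvm
  split_ifs
  · simp
  · exact hab

theorem tv_comm (h : E2 z) {a b : Q} (ha : a * a = z) (hb : b * b = z) (hab : a * b = b * a) :
    tv h a ha * tv h b hb = tv h b hb * tv h a ha := by
  ext x
  change tv h a ha (tv h b hb x) = tv h b hb (tv h a ha x)
  rw [tv_apply h b hb x, tv_apply h a ha x, map_mul, map_mul, tv_of_comm h ha (tvm_comm hab.symm x),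
    tv_of_comm h hb (tvm_comm hab x), tv_apply, tv_apply, mul_assoc, mul_assoc]
  congr 1
  unfold tvm
  split_ifs <;> simp [hab]

theorem mul_conj (γ : MulAut Q) (u : Q) : γ * MulAut.conj u = MulAut.conj (γ u) * γ := by
  ext x
  simp [MulAut.mul_apply, MulAut.conj_apply]

theorem conj_eq_one_iff (h : E2 z) (g : Q) : MulAut.conj g = 1 ↔ g = 1 ∨ g = z := by
  constructor
  · intro hg
    apply h.center
    intro q
    have h1 := congrArg (fun γ : MulAut Q => γ q) hg
    simp only [MulAut.conj_apply, MulAut.one_apply] at h1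
    exact (mul_inv_eq_iff_eq_mul.1 h1).symm
  · rintro (rfl | rfl)
    · simp
    · ext q
      simp only [MulAut.conj_apply, MulAut.one_apply]
      rw [← h.z_comm, mul_inv_cancel_right]

open Classical in
/-- the exponent: `0` if `x` commutes with `a`, `1` otherwise. -/
noncomputable def ee (a x : Q) : ℕ := if x * a = a * x then 0 else 1

theorem tvm_eq_pow (a x : Q) : tvm a x = a ^ ee a x := by
  unfold tvm ee
  split_ifs <;> simp

theorem anti_of_ee_odd (h : E2 z) {a x : Q} (he : (ee a x + 1) % 2 = 0) : x * a = z * (a * x) := by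
  apply h.anti_of_ne
  intro hc
  unfold ee at he
  rw [if_pos hc] at he
  omega

theorem pow_eq_pow_mod_two {V : Type*} [Monoid V] {A : V} (hA : A * A = 1) (i : ℕ) : A ^ i = A ^ (i % 2) := by
  conv_lhs => rw [← Nat.div_add_mod i 2]
  rw [pow_add, pow_mul, pow_two, hA, one_pow, one_mul]

theorem indep_pow {V : Type*} [CommGroup V] {A1 A2 A3 : V} (s1 : A1 * A1 = 1) (s2 : A2 * A2 = 1)
    (s3 : A3 * A3 = 1) (f1 : A1 ≠ 1) (f2 : A2 ≠ 1) (f3 : A3 ≠ 1) (f12 : A1 * A2 ≠ 1) (f13 : A1 * A3 ≠ 1)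
    (f23 : A2 * A3 ≠ 1) (f123 : A1 * A2 * A3 ≠ 1) (i j k : ℕ) (h : A1 ^ i * A2 ^ j * A3 ^ k = 1) :
    i % 2 = 0 ∧ j % 2 = 0 ∧ k % 2 = 0 := by
  rw [pow_eq_pow_mod_two s1 i, pow_eq_pow_mod_two s2 j, pow_eq_pow_mod_two s3 k] at h
  rcases Nat.mod_two_eq_zero_or_one i with hi | hi <;> rcases Nat.mod_two_eq_zero_or_one j with hj | hj <;>
    rcases Nat.mod_two_eq_zero_or_one k with hk | hk <;>
    rw [hi, hj, hk] at h <;> simp only [pow_zero, pow_one, mul_one, one_mul] at h
  · exact ⟨hi, hj, hk⟩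
  · exact absurd h f3
  · exact absurd h f2
  · exact absurd h f23
  · exact absurd h f1
  · exact absurd h f13
  · exact absurd h f12
  · exact absurd h f123

/-- three pairwise commuting elements with square `z`, independent modulo `{1, z}`. -/
structure Triple (z a1 a2 a3 : Q) : Prop where
  s1 : a1 * a1 = z
  s2 : a2 * a2 = z
  s3 : a3 * a3 = z
  c12 : a1 * a2 = a2 * a1
  c13 : a1 * a3 = a3 * a1
  c23 : a2 * a3 = a3 * a2
  n12 : ¬ (a1 * a2 = 1 ∨ a1 * a2 = z)
  n13 : ¬ (a1 * a3 = 1 ∨ a1 * a3 = z)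
  n23 : ¬ (a2 * a3 = 1 ∨ a2 * a3 = z)

/-- the product of the three transvections. -/
noncomputable def al (h : E2 z) {a1 a2 a3 : Q} (t : Triple z a1 a2 a3) : MulAut Q :=
  tv h a1 t.s1 * tv h a2 t.s2 * tv h a3 t.s3

theorem al_apply (h : E2 z) {a1 a2 a3 : Q} (t : Triple z a1 a2 a3) (x : Q) :
    al h t x = x * tvm a1 x * tvm a2 x * tvm a3 x := by
  change tv h a1 t.s1 (tv h a2 t.s2 (tv h a3 t.s3 x)) = _
  rw [tv_apply h a3, map_mul, tv_of_comm h t.s2 (tvm_comm t.c23.symm x), map_mul,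
    tv_of_comm h t.s1 (tvm_comm t.c13.symm x), tv_apply h a2, map_mul,
    tv_of_comm h t.s1 (tvm_comm t.c12.symm x), tv_apply h a1]

theorem al_mul_self (h : E2 z) {a1 a2 a3 : Q} (t : Triple z a1 a2 a3) :
    al h t * al h t = MulAut.conj (a1 * a2 * a3) := by
  have c12 : Commute (tv h a2 t.s2) (tv h a1 t.s1) := (tv_comm h t.s1 t.s2 t.c12).symm
  have c13 : Commute (tv h a3 t.s3) (tv h a1 t.s1) := (tv_comm h t.s1 t.s3 t.c13).symm
  have c23 : Commute (tv h a3 t.s3) (tv h a2 t.s2) := (tv_comm h t.s2 t.s3 t.c23).symm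
  unfold al
  rw [(c13.mul_right c23).mul_mul_mul_comm, c12.mul_mul_mul_comm, tv_mul_self, tv_mul_self, tv_mul_self,
    map_mul, map_mul]

theorem Triple.s123 (h : E2 z) {a1 a2 a3 : Q} (t : Triple z a1 a2 a3) :
    (a1 * a2 * a3) * (a1 * a2 * a3) = z := by
  have r1 := assoc_rule t.s1
  have r2 := assoc_rule t.s2
  have r12 := assoc_rule t.c12.symm
  have r13 := assoc_rule t.c13.symm
  have r23 := assoc_rule t.c23.symm
  simp only [mul_assoc, r12, r13, r23, r1, r2, t.s3, h.z_left, h.z_z]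

theorem Triple.fourth (h : E2 z) {a1 a2 a3 : Q} (t : Triple z a1 a2 a3) :
    Triple z a1 a2 (a1 * a2 * a3) := by
  have r1 := assoc_rule t.s1
  have r2 := assoc_rule t.s2
  have r12 := assoc_rule t.c12.symm
  have r13 := assoc_rule t.c13.symm
  have r23 := assoc_rule t.c23.symm
  have hz : ∀ y : Q, (z * y = 1 ∨ z * y = z) → (y = 1 ∨ y = z) := by
    intro y hy
    rcases hy with hy | hy
    · right
      have := congrArg (fun w => z * w) hy
      simpa [h.z_z] using this
    · left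
      exact mul_eq_left.1 hy
  refine ⟨t.s1, t.s2, t.s123 h, t.c12, ?_, ?_, t.n12, ?_, ?_⟩
  · simp only [mul_assoc, r12, r13, t.c13.symm, t.c12.symm]
  · simp only [mul_assoc, r12, r23, t.c23.symm]
  · intro hc
    apply t.n23
    apply hz
    have e : a1 * (a1 * a2 * a3) = z * (a2 * a3) := by simp only [mul_assoc, r1]
    rwa [e] at hc
  · intro hc
    apply t.n13
    apply hz
    have e : a2 * (a1 * a2 * a3) = z * (a1 * a3) := by simp only [mul_assoc, r12, r2, h.z_left]
    rwa [e] at hc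

section main

variable {V : Type*} [CommGroup V]

theorem step1 (h : E2 z) (π : Q →* V) (hπ : ∀ x, π x = 1 ↔ (x = 1 ∨ x = z))
    (L : Subgroup (MulAut Q)) (hL : ∀ γ ∈ L, ∀ g : Q, γ = MulAut.conj g → γ = 1)
    {a1 a2 a3 : Q} (t : Triple z a1 a2 a3) (u : Q) (hu : MulAut.conj u * al h t ∈ L) :
    u * a1 = z * (a1 * u) ∧ u * a2 = z * (a2 * u) ∧ u * a3 = z * (a3 * u) := by
  have hsq : ∀ x, π x * π x = 1 := by
    intro x
    rw [← map_mul, hπ]
    exact h.sq x
  have hne : ∀ x, x * x = z → π x ≠ 1 := by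
    intro x hx hx1
    rcases (hπ x).1 hx1 with rfl | rfl
    · rw [mul_one] at hx; exact h.z_ne hx.symm
    · rw [h.z_sq] at hx; exact h.z_ne hx.symm
  have e1 : (MulAut.conj u * al h t) * (MulAut.conj u * al h t) =
      MulAut.conj (u * al h t u * (a1 * a2 * a3)) := by
    rw [mul_assoc, ← mul_assoc (al h t), mul_conj, mul_assoc, al_mul_self, ← map_mul, ← map_mul]
    simp only [mul_assoc]
  have e2 := hL _ (L.mul_mem hu hu) _ e1
  rw [e1, conj_eq_one_iff h, ← hπ, al_apply, tvm_eq_pow, tvm_eq_pow, tvm_eq_pow] at e2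
  simp only [map_mul, map_pow] at e2
  have e3 : π a1 ^ (ee a1 u + 1) * π a2 ^ (ee a2 u + 1) * π a3 ^ (ee a3 u + 1) = 1 := by
    rw [← e2, pow_succ, pow_succ, pow_succ]
    have : π u * (π u * π a1 ^ ee a1 u * π a2 ^ ee a2 u * π a3 ^ ee a3 u) * (π a1 * π a2 * π a3) =
        (π u * π u) * (π a1 ^ ee a1 u * π a1 * (π a2 ^ ee a2 u * π a2) * (π a3 ^ ee a3 u * π a3)) := by
      ac_rfl
    rw [this, hsq, one_mul]
  have s123 := t.s123 h
  obtain ⟨i1, i2, i3⟩ := indep_pow (hsq a1) (hsq a2) (hsq a3) (hne _ t.s1) (hne _ t.s2) (hne _ t.s3)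
    (by rw [← map_mul, Ne, hπ]; exact t.n12) (by rw [← map_mul, Ne, hπ]; exact t.n13)
    (by rw [← map_mul, Ne, hπ]; exact t.n23) (by rw [← map_mul, ← map_mul]; exact hne _ s123) _ _ _ e3
  exact ⟨anti_of_ee_odd h i1, anti_of_ee_odd h i2, anti_of_ee_odd h i3⟩

theorem no_complement (h : E2 z) (π : Q →* V) (hπ : ∀ x, π x = 1 ↔ (x = 1 ∨ x = z))
    {a1 a2 a3 : Q} (t : Triple z a1 a2 a3) (L : Subgroup (MulAut Q)) :
    ¬ (Cfsg.Inn Q).IsComplement' L := by
  intro hc
  have hL : ∀ γ ∈ L, ∀ g : Q, γ = MulAut.conj g → γ = 1 := by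
    intro γ hγ g hg
    have h1 : γ ∈ Cfsg.Inn Q ⊓ L := Subgroup.mem_inf.2 ⟨⟨g, hg.symm⟩, hγ⟩
    rwa [hc.disjoint.eq_bot, Subgroup.mem_bot] at h1
  have hex : ∀ γ : MulAut Q, ∃ u : Q, MulAut.conj u * γ ∈ L := by
    intro γ
    obtain ⟨⟨⟨ι, hι⟩, ⟨l, hl⟩⟩, hx, -⟩ := Subgroup.isComplement_iff_existsUnique.1 hc γ
    obtain ⟨g, rfl⟩ := hι
    refine ⟨g⁻¹, ?_⟩
    have hx' : MulAut.conj g * l = γ := hx
    rw [← hx', map_inv, inv_mul_cancel_left]
    exact hl
  have t4 := t.fourth h
  obtain ⟨u, hu⟩ := hex (al h t)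
  obtain ⟨w, hw⟩ := hex (al h t4)
  obtain ⟨u1, u2, u3⟩ := step1 h π hπ L hL t u hu
  obtain ⟨w1, w2, w4⟩ := step1 h π hπ L hL t4 w hw
  have u4 : u * (a1 * a2 * a3) = z * ((a1 * a2 * a3) * u) := by
    simp only [mul_assoc, assoc_rule u1, assoc_rule u2, u3, h.z_left, h.z_z]
  have w3 : w * a3 = z * (a3 * w) := by
    rcases h.comm w a3 with hc3 | hc3
    · exfalso
      apply h.anti_ne w4
      simp only [mul_assoc, assoc_rule w1, assoc_rule w2, hc3, h.z_left, h.z_z]
    · exact hc3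
  have hcomm : al h t * al h t4 = al h t4 * al h t := by
    have c12 : Commute (tv h a1 t.s1) (tv h a2 t.s2) := tv_comm h t.s1 t.s2 t.c12
    have c13 : Commute (tv h a1 t.s1) (tv h a3 t.s3) := tv_comm h t.s1 t.s3 t.c13
    have c23 : Commute (tv h a2 t.s2) (tv h a3 t.s3) := tv_comm h t.s2 t.s3 t.c23
    have c14 : Commute (tv h a1 t.s1) (tv h _ t4.s3) := tv_comm h t.s1 t4.s3 t4.c13
    have c24 : Commute (tv h a2 t.s2) (tv h _ t4.s3) := tv_comm h t.s2 t4.s3 t4.c23
    have c34 : Commute (tv h a3 t.s3) (tv h _ t4.s3) := by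
      apply tv_comm h t.s3 t4.s3
      simp only [mul_assoc, assoc_rule t.c13.symm, assoc_rule t.c23.symm]
    have r1 : Commute (tv h a1 t.s1) (tv h a1 t.s1 * tv h a2 t.s2 * tv h _ t4.s3) :=
      ((Commute.refl _).mul_right c12).mul_right c14
    have r2 : Commute (tv h a2 t.s2) (tv h a1 t.s1 * tv h a2 t.s2 * tv h _ t4.s3) :=
      (c12.symm.mul_right (Commute.refl _)).mul_right c24
    have r3 : Commute (tv h a3 t.s3) (tv h a1 t.s1 * tv h a2 t.s2 * tv h _ t4.s3) :=
      (c13.symm.mul_right c23.symm).mul_right c34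
    exact (r1.mul_left r2).mul_left r3
  have e1 : (MulAut.conj u * al h t) * (MulAut.conj w * al h t4) =
      MulAut.conj (u * al h t w) * (al h t * al h t4) := by
    rw [mul_assoc, ← mul_assoc (al h t), mul_conj, map_mul]
    simp only [mul_assoc]
  have e2 : (MulAut.conj w * al h t4) * (MulAut.conj u * al h t) =
      MulAut.conj (w * al h t4 u) * (al h t * al h t4) := by
    rw [mul_assoc, ← mul_assoc (al h t4), mul_conj, map_mul, hcomm]
    simp only [mul_assoc]
  have e3 : (MulAut.conj u * al h t) * (MulAut.conj w * al h t4) *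
      ((MulAut.conj w * al h t4) * (MulAut.conj u * al h t))⁻¹ =
      MulAut.conj (u * al h t w * (w * al h t4 u)⁻¹) := by
    rw [e1, e2, mul_inv_rev, mul_assoc, mul_inv_cancel_left, ← map_inv, ← map_mul]
  have e4 := hL _ (L.mul_mem (L.mul_mem hu hw) (L.inv_mem (L.mul_mem hw hu))) _ e3
  rw [e3, conj_eq_one_iff h, ← hπ, al_apply, al_apply, tvm_of_ne (h.anti_ne w1), tvm_of_ne (h.anti_ne w2),
    tvm_of_ne (h.anti_ne w3), tvm_of_ne (h.anti_ne u1), tvm_of_ne (h.anti_ne u2), tvm_of_ne (h.anti_ne u4),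
    map_mul, map_inv, mul_inv_eq_one] at e4
  simp only [map_mul] at e4
  have e5 : π w * (π u * π a1 * π a2 * (π a1 * π a2 * π a3)) =
      π u * (π w * π a1 * π a2 * π a3) * (π a1 * π a2) := by ac_rfl
  rw [e5, left_eq_mul, ← map_mul, hπ] at e4
  exact t.n12 e4

end main

end Cfsg.Agent.Lib.Helper51
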